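import Mathlib
import Cfsg.Agent.TcChain36.O7C.Cover
import Cfsg.Agent.TcChain36.O7C.Inv
import Cfsg.Agent.TcData.Fi22.I14080.Rep

set_option autoImplicit false
set_option maxRecDepth 1000000
set_option linter.all false

namespace Cfsg.Agent.TcChain36.O7C

open Cfsg.Agent.Lib.OutTree36 Cfsg.Agent.Lib.PcClass36

open Cfsg.Agent.Lib.TcBits Cfsg.Agent.Lib.TcPres Cfsg.Agent.Lib.Fi22O7
open Cfsg.Agent.TcChain36.Fi22.Y232 (ι)

set_option Elab.async false

/-- The second representation. -/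
noncomputable def Phi14 : Gp →* Equiv.Perm ℕ := Cfsg.Agent.TcData.Fi22.I14080.Phi.comp piT

theorem piT_evL (w : List ℕ) : piT (evL Lt0 w) = evL (fun i => PresentedGroup.of (ι (dec i))) w := by
  induction w with
  | nil => simp
  | cons a w ih =>
    rw [evL_cons, evL_cons, map_mul, ih]
    congr 1

theorem hwa14 : ∀ w X i, (wa14 w X).testBit i = X.testBit (Phi14 (evL Lt0 w) i) := by
  intro w X i
  have h := wa_spec Cfsg.Agent.TcData.Fi22.I14080.hR Cfsg.Agent.TcData.Fi22.I14080.hv (fun i => ι (dec i)) w X i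
  show _ = X.testBit (Cfsg.Agent.TcData.Fi22.I14080.Phi (piT (evL Lt0 w)) i)
  rw [piT_evL]
  exact h

theorem bd14 : ∀ (g : Gp) (p : ℕ), p < 14080 → Phi14 g p < 14080 := by
  have h1 : ∀ g : PresentedGroup Cfsg.Agent.TcData.Fi22.RR, Cfsg.Agent.TcData.Fi22.I14080.Phi g 0 < 14080 := by
    intro g
    have := Cfsg.Agent.TcData.Fi22.I14080.bij.2.2.1 (g : PresentedGroup Cfsg.Agent.TcData.Fi22.RR ⧸ Cfsg.Agent.TcData.Fi22.I14080.HH)
    rwa [Cfsg.Agent.Lib.TcBits.betaF_mk] at this
  intro g p hp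
  exact bd_of_trans h1 Cfsg.Agent.TcData.Fi22.I14080.hs _ p hp

theorem hM14 (g : Gp) (p : ℕ) : M14.testBit (Phi14 g p) = M14.testBit p := by
  have e : ∀ q, M14.testBit q = decide (q < 14080) := by
    intro q
    rw [M14, Nat.testBit_two_pow_sub_one]
  rw [e, e]
  have h1 : Phi14 g p < 14080 ↔ p < 14080 := by
    constructor
    · intro h
      have := bd14 g⁻¹ _ h
      simpa using this
    · exact bd14 g p
  simp only [h1]

theorem hMs2 (g : Gp) : ∀ p, Ms.testBit (Phi g p) = Ms.testBit p := by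
  refine mask_inv (PresentedGroup.closure_range_of _) ?_ g
  rintro _ ⟨x, rfl⟩ p
  have key : ∀ l, l < 8 → dec l = x → Ms.testBit (Phi (PresentedGroup.of x) p) = Ms.testBit p := by
    intro l hl hx
    have h1 := hwa [l] Ms p
    rw [beq_true (hMs l hl)] at h1
    have e : evL Lt0 [l] = PresentedGroup.of x := by
      rw [evL_cons, evL_nil, mul_one, ← hx]; rfl
    rw [e] at h1
    exact h1.symm
  cases x
  · exact key 0 (by norm_num) rfl
  · exact key 1 (by norm_num) rfl
  · exact key 2 (by norm_num) rfl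
  · exact key 3 (by norm_num) rfl
  · exact key 4 (by norm_num) rfl
  · exact key 5 (by norm_num) rfl
  · exact key 6 (by norm_num) rfl
  · exact key 7 (by norm_num) rfl

/-- The invariant. -/
noncomputable def FF (x : Gp) : ℕ × ℕ := (fixC Phi 2187 Ms x, fixC Phi14 14080 M14 x)

theorem FF_conj (g x : Gp) : FF (g * x * g⁻¹) = FF x := by
  unfold FF
  rw [fixC_conj bd hMs2, fixC_conj bd14 hM14]

theorem FF_inv (x : Gp) : FF x⁻¹ = FF x := by
  unfold FF
  rw [fixC_inv, fixC_inv]

theorem hflat : ∀ j, j < 7 → ((yW j).flatMap fun i => defsL.getD i []) = yW j := by decide +kernel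

theorem y_letters {j : ℕ} (hj : j < 7) : evL Lt (yW j) = evL Lt0 (yW j) := by
  rw [evL_flat (Lt := Lt) (Lt0 := Lt0) (defs := defsL) (fun i => rfl), hflat j hj]

theorem FF_y {j : ℕ} {D E : ℕ} (hj : j < 7) (hD : movedM wa (slice 12) (yW j) 12 = D)
    (hE : movedM wa14 (slice 14) (yW j) 14 = E) :
    FF (evL Lt (yW j)) = (fixK 2187 Ms D 12, fixK 14080 M14 E 14) := by
  rw [y_letters hj]
  unfold FF
  rw [fixC_eq bd hwa (slice_spec (by norm_num)) (by norm_num) Ms _ hD,
    fixC_eq bd14 hwa14 (slice_spec (by norm_num)) (by norm_num) M14 _ hE]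

/-- The values of the invariant. -/
def vt : Fin 7 → ℕ × ℕ
  | 0 => (81, 148)
  | 1 => (99, 49)
  | 2 => (27, 13)
  | 3 => (27, 148)
  | 4 => (63, 112)
  | 5 => (9, 13)
  | 6 => (9, 49)

theorem FF_vt (j : Fin 7) : FF (evL Lt (yW j)) = vt j := by
  fin_cases j
  · exact (FF_y (by norm_num) hD0 hE0).trans (by rw [hF0, hG0]; rfl)
  · exact (FF_y (by norm_num) hD1 hE1).trans (by rw [hF1, hG1]; rfl)
  · exact (FF_y (by norm_num) hD2 hE2).trans (by rw [hF2, hG2]; rfl)
  · exact (FF_y (by norm_num) hD3 hE3).trans (by rw [hF3, hG3]; rfl)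
  · exact (FF_y (by norm_num) hD4 hE4).trans (by rw [hF4, hG4]; rfl)
  · exact (FF_y (by norm_num) hD5 hE5).trans (by rw [hF5, hG5]; rfl)
  · exact (FF_y (by norm_num) hD6 hE6).trans (by rw [hF6, hG6]; rfl)

theorem vt_inj : Function.Injective vt := by decide

theorem hy3' : ∀ j, j < 7 → eqB ap bsL (yW j ++ yW j ++ yW j) [] = true := by decide +kernel

theorem hy1' : ∀ j, j < 7 → (!(eqB ap bsL (yW j) [])) = true := by decide +kernel

theorem main : ClassesOf Gp 7 := by
  refine classes_main (fun j : Fin 7 => evL Lt (yW j)) ?_ ?_ ?_ FF FF_conj FF_inv ?_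
  · intro j
    have h := eqB_sound H hbs hbn (hy3' j j.2)
    rw [evL_append, evL_append, evL_nil, ← pow_two, ← pow_succ] at h
    exact h
  · intro j
    exact eqB_false H hbs hbn (hy1' j j.2)
  · intro x hx3 hx1
    obtain ⟨j, hj, g, hg⟩ := hcov hx3 hx1
    exact ⟨⟨j, hj⟩, g, hg⟩
  · intro i j he
    apply vt_inj
    have h1 : FF (evL Lt (yW i)) = FF (evL Lt (yW j)) := he
    rwa [FF_vt, FF_vt] at h1

/-- The statement. -/
theorem final : ClassesOf (Cfsg.POmega (ZMod 3) (Cfsg.quadFormOdd 3 (ZMod 3))) 7 := by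
  rw [form_eq]
  have hP : Nat.card Gp = 4585351680 := card_spec.1
  haveI : Finite (Cfsg.POmega (ZMod 3) (⇑Q0)) := Nat.finite_of_card_ne_zero (by rw [card_POmega]; norm_num)
  have hφ : Function.Bijective phi :=
    phi_inj.bijective_of_nat_card_le (by rw [hP, card_POmega])
  exact main.transport (MulEquiv.ofBijective phi hφ)

end Cfsg.Agent.TcChain36.O7C
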